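import Mathlib
import Cfsg.Agent.Lib.Helper71.SUG2.Defs
import Cfsg.Agent.Lib.Helper71.SUG2.Asm
import Cfsg.Agent.Lib.Helper42.SUG2.Shift
import Cfsg.Agent.Lib.Helper89.SUG2.CK
import Cfsg.Agent.Lib.Helper8.SUG2.Diag
import Cfsg.Agent.Lib.Helper8.SUG2.Ex
import Cfsg.Agent.Lib.Helper65.SUG2.Arith
import Cfsg.Agent.Lib.Helper72.SUG2.Comb4
import Cfsg.Agent.Lib.Helper20.SUG2.CombStep
import Cfsg.Agent.Lib.Helper84.SUG2.AllPairs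
import Cfsg.Agent.Lib.Helper89.SUG2.BPow
import Cfsg.Agent.Lib.Helper62.SUG2.Pair
import Cfsg.Agent.Lib.Helper84.SUG2.Adj
import Cfsg.Agent.Lib.Helper70.SUG2.SUGen

/-!
# SUG block [II]: `SU_n(2)`, `n ≥ 5`, is generated by two elements (unconditional)

Packages by helper42 (SHIFT), helper89 (CK, BPOW), helper8 (DIAG, EX), helper65 (ISOWT, WISO, DPROD),
helper72 (COMB4), helper20 (COMBSTEP), helper84 (ALLPAIRS, ADJ), helper62 (PAIR), helper70 (SUGEN).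
-/

set_option autoImplicit false

namespace Cfsg.Agent.Lib.Helper71.SUG2

universe u

/-- `SU_n(2)`, `n ≥ 5`, is generated by two elements. -/
theorem su_q2_two_gen {F : Type u} [Field F] [Fintype F] (hF : Fintype.card F = 2 ^ 2) (n : ℕ)
    (hn : 5 ≤ n) :
    ∃ a b : ↥(Cfsg.SU n F 2), Subgroup.closure ({a, b} : Set ↥(Cfsg.SU n F 2)) = ⊤ :=
  su_q2_two_gen_of Cfsg.Agent.Lib.Helper65.SUG2.pkgIsoWt Cfsg.Agent.Lib.Helper65.SUG2.pkgWIso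
    Cfsg.Agent.Lib.Helper65.SUG2.pkgDProd Cfsg.Agent.Lib.Helper8.SUG2.pkgEx
    Cfsg.Agent.Lib.Helper89.SUG2.pkgCK Cfsg.Agent.Lib.Helper42.SUG2.pkgShift
    Cfsg.Agent.Lib.Helper8.SUG2.pkgDiag
    (Cfsg.Agent.Lib.Helper89.SUG2.pkgBPow_of Cfsg.Agent.Lib.Helper65.SUG2.pkgWIso)
    Cfsg.Agent.Lib.Helper70.SUG2.pkgSUGen Cfsg.Agent.Lib.Helper62.SUG2.pkgPair
    Cfsg.Agent.Lib.Helper84.SUG2.pkgAdj Cfsg.Agent.Lib.Helper84.SUG2.pkgAllPairs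
    Cfsg.Agent.Lib.Helper72.SUG2.pkgComb4 Cfsg.Agent.Lib.Helper20.SUG2.pkgCombStep hF n hn

end Cfsg.Agent.Lib.Helper71.SUG2
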