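import Mathlib
import Cfsg.Agent.Lib.Helper60.SUG.Defs
import Cfsg.Agent.Lib.Helper71.SUG2.Main

/-!
# SUG block [Q2] in the exact shape of helper60's interface: `PkgQ2`
-/

set_option autoImplicit false

namespace Cfsg.Agent.Lib.Helper71.SUG2

universe u

/-- [Q2] `q = 2`, `n ≥ 5`: `SU_n(2)` is generated by two elements. -/
theorem pkgQ2 : Cfsg.Agent.Lib.Helper60.SUG.PkgQ2.{u} := by
  intro F _ _ hF n hn
  exact su_q2_two_gen hF n hn

end Cfsg.Agent.Lib.Helper71.SUG2
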